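import Cfsg.Agent.Lib.Spor.Cent3

/-!
Injectivity and core-freeness from the order of the whole group.
-/

set_option autoImplicit false

namespace Cfsg.Agent.Spor

open Cfsg.Agent.PG Subgroup Equiv

variable {Γ : Type*} [Group Γ] {γ : ℕ → Γ} {A : List Net} {t N : ℕ}

theorem card_le_of_cover' {S : Type*} [Group S] [Finite S] (φ : S →* Γ) {G : Subgroup Γ}
    (T : List (Γ × ℕ))
    (hT : ∀ q ∈ T, 0 < q.2 ∧ q.2 ≤ Nat.card ((conjIn φ.range q.1⁻¹).comap φ))
    (h : ∀ x ∈ G, ∃ k ∈ φ.range, ∃ q ∈ T, (k * q.1)⁻¹ * x ∈ φ.range) :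
    Nat.card G ≤ (T.map fun q => Nat.card S / q.2).sum * Nat.card φ.range := by
  have : Finite φ.range := Finite.of_surjective _ φ.rangeRestrict_surjective
  obtain ⟨h1, h2⟩ := ncard_le_sum T (fun q => Set.range
    fun p : (S ⧸ (conjIn φ.range q.1⁻¹).comap φ) × φ.range => φ p.1.out * q.1 * p.2)
    (fun q => Nat.card S / q.2 * Nat.card φ.range) fun q hq => ⟨Set.finite_range _, by
      rw [← Set.image_univ]
      refine (Set.ncard_image_le Set.finite_univ).trans ?_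
      rw [Set.ncard_univ, Nat.card_prod]
      apply Nat.mul_le_mul_right
      rw [Nat.le_div_iff_mul_le (hT q hq).1,
        card_eq_card_quotient_mul_card_subgroup ((conjIn φ.range q.1⁻¹).comap φ)]
      exact Nat.mul_le_mul_left _ (hT q hq).2⟩
  have h3 : (G : Set Γ) ⊆ _ := fun x hx => by
    obtain ⟨_, ⟨σ, rfl⟩, q, hq, τ, e⟩ := h x hx
    obtain ⟨m, hm⟩ := QuotientGroup.mk_out_eq_mul ((conjIn φ.range q.1⁻¹).comap φ) σ
    obtain ⟨u, hu⟩ : q.1⁻¹ * φ m * q.1⁻¹⁻¹ ∈ φ.range := m.2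
    show x ∈ {x | ∃ q ∈ T, x ∈ Set.range
      fun p : (S ⧸ (conjIn φ.range q.1⁻¹).comap φ) × φ.range => φ p.1.out * q.1 * p.2}
    refine ⟨q, hq, ((σ : S ⧸ _), ⟨_, u⁻¹ * τ, rfl⟩), ?_⟩
    simp only [hm, map_mul, map_inv, hu, e]
    group
  rw [← List.sum_map_mul_right]
  exact (Set.ncard_le_ncard h3 h1).trans h2

variable {φ : K A (t + 1) →* Γ} {t'' β O : ℕ} {cj : List ℕ} {reps : List Rep}

theorem top_inj (hA : okA N A = true) (hφ : IsLift A γ (t + 1) φ)
    (h : TopOK A γ t t'' β O cj reps) {l : ℕ} {lvs : List (List (ℕ × ℕ × ℕ × ℕ))}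
    (hlen : lvs.length = reps.length) (hlb : ∀ q ∈ reps.zip lvs, lbR A l q = true) {m : ℕ}
    (hm : Nat.card (K A (t + 1)) = m) [Finite (KG γ t)]
    (hG : Nat.card (KG γ t) = (lvs.map fun lv => m / lvProd lv).sum * m) :
    Function.Injective φ := by
  have := finite_K hA (t + 1)
  have h1 := card_le_of_cover' φ (G := KG γ t)
    ((reps.zip lvs).map fun q => (wpG γ q.1.g, lvProd q.2)) (by
      intro q hq
      obtain ⟨q, hq', rfl⟩ := List.mem_map.1 hq
      have h2 := hlb q hq'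
      unfold lbR at h2
      rw [andB_eq, Bool.and_eq_true, Nat.blt_eq] at h2
      have hR := (List.of_mem_zip hq').1
      have : Finite (stabD φ (wpG γ q.1.g)) := finite_of_le (stabD_le _ _)
      exact ⟨h2.1, card_stabD φ _ ▸
        lbQ_nil hA (ms_mem_stabD hφ hR (h.rep _ hR) h.claims) h2.2⟩) (by
      intro x hx
      obtain ⟨k, hk, w, hw, e⟩ := dc_cosetsG hA hφ h.next h.shape h.rep h.claims x hx
      rw [← List.map_fst_zip hlen.ge, List.map_map] at hw
      obtain ⟨q, hq, rfl⟩ := List.mem_map.1 hw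
      exact ⟨k, hφ.range ▸ hk, _, List.mem_map.2 ⟨q, hq, rfl⟩, hφ.range ▸ e⟩)
  rw [List.map_map, hm, show ((fun q : Γ × ℕ => m / q.2) ∘
      fun q : Rep × List (ℕ × ℕ × ℕ × ℕ) => (wpG γ q.1.g, lvProd q.2)) =
      (fun lv => m / lvProd lv) ∘ Prod.snd from rfl, ← List.map_map,
      List.map_snd_zip hlen.le] at h1
  have h0 : 0 < Nat.card (KG γ t) := Nat.card_pos
  rw [hG] at h0 h1
  refine inj_of_card hφ (le_antisymm ?_ ?_)
  · rw [hm, ← hφ.range]
    exact Nat.le_of_mul_le_mul_left h1 (Nat.pos_of_mul_pos_right h0)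
  · rw [← hφ.range]
    exact Nat.card_le_card_of_surjective _ φ.rangeRestrict_surjective

theorem core_of_cop {t' : ℕ} {φ : K A t' →* Γ} (hφ : IsLift A γ t' φ) (hi : Function.Injective φ)
    {G : Subgroup Γ} {g g' : Γ} (hg : g ∈ G) (hg' : g' ∈ G)
    (h : (Nat.card (stabD φ g)).Coprime (Nat.card (stabD φ g'))) :
    ∀ M : Subgroup Γ, M ≤ KG γ t' → (∀ g ∈ G, ∀ n ∈ M, g * n * g⁻¹ ∈ M) → M = ⊥ := by
  intro M h1 h2
  have key : ∀ g ∈ G, Nat.card M ∣ Nat.card (stabD φ g) := fun g hg => by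
    rw [card_stabD, ← card_map_of_injective hi, map_comap_eq, hφ.range]
    exact card_dvd_of_le fun x hx => ⟨h1 hx, h1 (h2 _ (inv_mem hg) x hx)⟩
  exact card_eq_one.1 (Nat.eq_one_of_dvd_coprimes h (key g hg) (key g' hg'))

theorem conjProdG_mem {G M : Subgroup Γ} (hM : ∀ g ∈ G, ∀ n ∈ M, g * n * g⁻¹ ∈ M) {y : List ℕ}
    (hy : Spor.ppG γ y ∈ M) {us : List ℕ} (hu : ∀ u ∈ us, wpG γ u ∈ G) :
    Spor.ppG γ (conjProd y us) ∈ M := by
  induction us with
  | nil => exact M.one_mem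
  | cons u us ih =>
    unfold conjProd
    rw [List.flatMap_cons, ppG_append]
    refine M.mul_mem ?_ (ih fun a ha => hu a (List.mem_cons_of_mem _ ha))
    rw [ppG_cons, ppG_append, ppG_cons, ppG_nil, mul_one, spG_even, spG_odd, ← mul_assoc]
    exact hM _ (hu u List.mem_cons_self) _ hy

/-- a group of permutations acting faithfully on `{0, …, n - 1}` whose order is that of the
alternating group -/
theorem iso_alt' {Q : Subgroup (Equiv.Perm ℕ)} {n : ℕ} [NeZero n]
    (hn : 2 ≤ n) (hB : ∀ σ ∈ Q, ∀ i, σ i < n ↔ i < n) (hm : FixTriv Q {i | i < n})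
    (hc : 2 * Nat.card Q = n.factorial) : Nonempty (Q ≃* alternatingGroup (Fin n)) := by
  let f : Q →* Equiv.Perm (Fin n) := MonoidHom.mk' (fun σ => (Fin.equivSubtype.symm.permCongr
    (Equiv.Perm.subtypePerm σ.1 (hB σ.1 σ.2)))) fun _ _ => Equiv.ext fun _ => rfl
  have hi : Function.Injective f := (injective_iff_map_eq_one f).2 fun σ e => Subtype.ext
    (hm _ σ.2 fun i hi => congrArg (fun x : Equiv.Perm (Fin n) => (x ⟨i, hi⟩).1) e)
  have : Nontrivial (Fin n) := Fin.nontrivial_iff_two_le.2 hn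
  have h2 : f.range.index = 2 := by
    have := f.range.index_mul_card
    rw [← Nat.card_congr (MonoidHom.ofInjective hi).toEquiv, Nat.card_perm, Nat.card_fin, ← hc]
      at this
    refine Nat.eq_of_mul_eq_mul_right (Nat.pos_of_ne_zero fun e => ?_) this
    rw [e] at hc
    exact n.factorial_ne_zero hc.symm
  exact ⟨(MonoidHom.ofInjective hi).trans
    (MulEquiv.subgroupCongr (Equiv.Perm.eq_alternatingGroup_of_index_eq_two h2))⟩

end Cfsg.Agent.Spor
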