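import Cfsg.Agent.Lib.Spor.Pack
import Cfsg.Agent.Lib.Spor.Mat4

/-!
Extraspecial groups of either type; homomorphisms from actions; orbits on cosets.
-/

set_option autoImplicit false

namespace Cfsg.Agent.Spor

open Cfsg.Agent.PG Subgroup Cfsg.Agent.Lib.PGroup Cfsg.Agent.Lib.Transfer
open scoped commutatorElement

variable {Γ : Type*} [Group Γ]

theorem es_build' [Finite Γ] {z x y : Γ} {C : Subgroup Γ} (h : IsES 2 z C) (hx : x * x ∈ zpowers z)
    (hy : y * y ∈ zpowers z) (hxy : x * y = z * (y * x)) (hxc : x ∈ centralizer (C : Set Γ))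
    (hyc : y ∈ centralizer (C : Set Γ)) :
    IsES 2 z (C ⊔ zpowers x ⊔ zpowers y) ∧
      Nat.card ↥(C ⊔ zpowers x ⊔ zpowers y) = Nat.card C * 2 * 2 := by
  have : Fact (Nat.Prime 2) := ⟨Nat.prime_two⟩
  have hz1 : z ≠ 1 := fun e => by have := h.ord; rw [e, orderOf_one] at this; omega
  have hne : x * y ≠ y * x := fun e => hz1 (by rw [e] at hxy; simpa using hxy.symm)
  have l1 : C ⊔ zpowers x ≤ centralizer {x} := sup_le
    (fun c hc => mem_centralizer_singleton_iff.2 (hxc c hc))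
    (zpowers_le_of_mem (mem_centralizer_singleton_iff.2 rfl))
  have e1 : ⁅x, y⁆ = z := by rw [commutatorElement_def, hxy]; group
  have hyN : y ∈ normalizer ((C ⊔ zpowers x : Subgroup Γ) : Set Γ) := by
    refine mem_normalizer_sup_zpowers (centralizer_le_normalizer _ hyc) ?_
    have : y * x * y⁻¹ = z⁻¹ * x := by rw [← e1, commutatorElement_def]; group
    rw [this]
    exact mul_mem (mem_sup_left (inv_mem h.mem)) (mem_sup_right (mem_zpowers x))
  have hzc : C ⊔ zpowers x ⊔ zpowers y ≤ centralizer (zpowers z : Set Γ) :=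
    sup_le (sup_le (fun c hc a ha => (h.commute ha hc).eq)
      (zpowers_le_of_mem (centralizer_le h.zpowers_le hxc)))
      (zpowers_le_of_mem (centralizer_le h.zpowers_le hyc))
  let T : Γ → Subgroup Γ := fun a =>
    { carrier := {b | ⁅a, b⁆ ∈ zpowers z ∧ b ∈ centralizer (zpowers z : Set Γ)}
      one_mem' := ⟨by simp, one_mem _⟩
      mul_mem' := fun {b c} hb hc => ⟨by
        have : ⁅a, b * c⁆ = ⁅a, b⁆ * (b * ⁅a, c⁆ * b⁻¹) := by
          simp only [commutatorElement_def]; group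
        rw [this, ← hb.2 _ hc.1, mul_inv_cancel_right]
        exact mul_mem hb.1 hc.1, mul_mem hb.2 hc.2⟩
      inv_mem' := fun {b} hb => ⟨by
        have : ⁅a, b⁻¹⁆ = b⁻¹ * (⁅a, b⁆⁻¹ * b) := by
          simp only [commutatorElement_def]; group
        rw [this, hb.2 _ (inv_mem hb.1), inv_mul_cancel_left]
        exact inv_mem hb.1, inv_mem hb.2⟩ }
  have c0 : ∀ a b : Γ, a * b = b * a → ⁅a, b⁆ ∈ zpowers z := fun a b e => by
    rw [commutatorElement_eq_one_iff_mul_comm.2 e]; exact one_mem _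
  have sy : ∀ a b : Γ, ⁅a, b⁆ ∈ zpowers z → ⁅b, a⁆ ∈ zpowers z := fun a b e => by
    rw [← commutatorElement_inv]; exact inv_mem e
  have mx : x ∈ C ⊔ zpowers x ⊔ zpowers y := mem_sup_left (mem_sup_right (mem_zpowers x))
  have my : y ∈ C ⊔ zpowers x ⊔ zpowers y := mem_sup_right (mem_zpowers y)
  have mc : C ≤ C ⊔ zpowers x ⊔ zpowers y := le_sup_left.trans le_sup_left
  have gen : ∀ a, (∀ c ∈ C, ⁅a, c⁆ ∈ zpowers z) → ⁅a, x⁆ ∈ zpowers z → ⁅a, y⁆ ∈ zpowers z →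
      C ⊔ zpowers x ⊔ zpowers y ≤ T a := fun a h1 h2 h3 =>
    sup_le (sup_le (fun c hc => ⟨h1 c hc, hzc (mc hc)⟩) (zpowers_le_of_mem ⟨h2, hzc mx⟩))
      (zpowers_le_of_mem ⟨h3, hzc my⟩)
  have hcomm : ∀ a ∈ C ⊔ zpowers x ⊔ zpowers y, ∀ b ∈ C ⊔ zpowers x ⊔ zpowers y,
      ⁅a, b⁆ ∈ zpowers z := fun a ha b hb => (gen a
    (fun c hc => sy _ _ (gen c (h.comm c hc) (c0 _ _ (hxc c hc)) (c0 _ _ (hyc c hc)) ha).1)
    (sy _ _ (gen x (fun c hc => c0 _ _ (hxc c hc).symm) (c0 _ _ rfl) (e1 ▸ mem_zpowers z) ha).1)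
    (sy _ _ (gen y (fun c hc => c0 _ _ (hyc c hc).symm) (sy _ _ (e1 ▸ mem_zpowers z))
      (c0 _ _ rfl) ha).1) hb).1
  refine ⟨⟨mc h.mem, h.ord, hcomm, ?_, le_antisymm ?_ (le_inf (h.zpowers_le.trans mc) ?_)⟩, ?_⟩
  · let S : Subgroup Γ :=
      { carrier := {a | a ∈ C ⊔ zpowers x ⊔ zpowers y ∧ a ^ 2 ∈ zpowers z}
        one_mem' := ⟨one_mem _, by simp⟩
        mul_mem' := fun {a b} ha hb => ⟨mul_mem ha.1 hb.1, by
          have : (a * b) ^ 2 = a ^ 2 * ⁅a⁻¹, b⁆ * b ^ 2 := by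
            simp only [commutatorElement_def, sq]; group
          rw [this]
          exact mul_mem (mul_mem ha.2 (hcomm _ (inv_mem ha.1) _ hb.1)) hb.2⟩
        inv_mem' := fun {a} ha => ⟨inv_mem ha.1, by rw [inv_pow]; exact inv_mem ha.2⟩ }
    exact fun a ha => ((sup_le (sup_le (fun c hc => ⟨mc hc, h.pow c hc⟩)
      (zpowers_le_of_mem ⟨mx, by rwa [sq]⟩))
      (zpowers_le_of_mem ⟨my, by rwa [sq]⟩) : _ ≤ S) ha).2
  · rintro c ⟨h1, h2⟩
    have a1 : c ∈ centralizer {x} := mem_centralizer_singleton_iff.2 (h2 x mx).symm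
    have a2 : c ∈ centralizer {y} := mem_centralizer_singleton_iff.2 (h2 y my).symm
    have a3 := (mem_or_of_sq hyN (mem_sup_left (h.zpowers_le hy)) c h1).resolve_right fun e => hne (by
      have := mul_mem (inv_mem (l1 e)) a1
      simp only [mul_inv_rev, inv_inv, inv_mul_cancel_right] at this
      exact (mem_centralizer_singleton_iff.1 this).symm)
    have a4 := (mem_or_of_sq (centralizer_le_normalizer _ hxc) (h.zpowers_le hx) c a3).resolve_right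
      fun e => hne (by
        have := mul_mem (inv_mem (mem_centralizer_singleton_iff.2 (hyc _ e))) a2
        simp only [mul_inv_rev, inv_inv, inv_mul_cancel_right] at this
        exact mem_centralizer_singleton_iff.1 this)
    exact h.center.le ⟨a4, centralizer_le mc h2⟩
  · exact fun c hc a ha => (hzc ha c hc).symm
  · rw [card_sup_zpowers hyN (fun e => hne (mem_centralizer_singleton_iff.1 (l1 e)).symm)
      (by rw [sq]; exact mem_sup_left (h.zpowers_le hy)), card_sup_zpowers (centralizer_le_normalizer _ hxc)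
      (fun e => hne (hyc x e)) (by rw [sq]; exact h.zpowers_le hx)]

theorem es32 [Finite Γ] {z x y u v : Γ} {N : Subgroup Γ} (hN : Nat.card N = 32) (z1 : z ≠ 1)
    (m : z ∈ N ∧ x ∈ N ∧ y ∈ N ∧ u ∈ N ∧ v ∈ N) (h0 : z * z = 1) (h1 : x * x = 1)
    (h2 : y * y = 1) (h3 : x * y = z * (y * x)) (h4 : u * u = z) (h5 : v * v = z)
    (h6 : u * v = z * (v * u)) (h7 : z * x = x * z) (h8 : z * y = y * z) (h9 : x * u = u * x)
    (h10 : y * u = u * y) (h11 : x * v = v * x) (h12 : y * v = v * y) : IsES 2 z N := by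
  have : Fact (Nat.Prime 2) := ⟨Nat.prime_two⟩
  have o : orderOf z = 2 := orderOf_eq_prime (by rwa [sq]) z1
  have k : ∀ {a : Γ} {C : Subgroup Γ}, C ≤ centralizer {a} → a ∈ centralizer (C : Set Γ) :=
    fun h c hc => mem_centralizer_singleton_iff.1 (h hc)
  have l : ∀ {a b : Γ}, b * a = a * b → zpowers b ≤ centralizer {a} := fun h =>
    zpowers_le_of_mem (mem_centralizer_singleton_iff.2 h)
  obtain ⟨a1, a2⟩ := es_build' (isES_zpowers o) (h1 ▸ one_mem _) (h2 ▸ one_mem _) h3 (k (l h7))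
    (k (l h8))
  obtain ⟨b1, b2⟩ := es_build' a1 (h4 ▸ mem_zpowers _) (h5 ▸ mem_zpowers _) h6
    (k (sup_le (sup_le (l (by rw [← h4, mul_assoc])) (l h9)) (l h10)))
    (k (sup_le (sup_le (l (by rw [← h5, mul_assoc])) (l h11)) (l h12)))
  rw [a2, Nat.card_zpowers, o] at b2
  rwa [eq_of_le_of_card_ge (sup_le (sup_le (sup_le (sup_le (zpowers_le_of_mem m.1)
    (zpowers_le_of_mem m.2.1)) (zpowers_le_of_mem m.2.2.1)) (zpowers_le_of_mem m.2.2.2.1))
    (zpowers_le_of_mem m.2.2.2.2)) (by rw [hN, b2])] at b1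

theorem hom_of_acts' {Y : Type*} [MulAction Γ Y] {X : ℕ → Y} {B : Set ℕ}
    {Q : Subgroup (Equiv.Perm ℕ)} (h : ∀ σ ∈ Q, ∃ g : Γ, Acts X B g σ)
    (h' : ∀ g : Γ, ∃ σ ∈ Q, Acts X B g σ) (hX : Set.InjOn X B) (hf : FixTriv Q B) :
    ∃ φ : Γ →* Q, Function.Surjective φ ∧ ∀ g, Acts X B g (φ g) := by
  choose f f1 f2 using h'
  refine ⟨MonoidHom.mk' (fun g => ⟨f g, f1 g⟩) fun g g' => Subtype.ext
    (Acts.unique_right hX hf (f1 _) (mul_mem (f1 _) (f1 _)) (f2 _) ((f2 _).mul (f2 _))),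
    fun σ => ?_, f2⟩
  obtain ⟨g, hg⟩ := h σ σ.2
  exact ⟨g, Subtype.ext (Acts.unique_right hX hf (f1 _) σ.2 (f2 _) hg)⟩

theorem ncard_orbit_quot {A : List Net} {t b t' : ℕ} (hs : StabIs A t b t') (e : Γ ≃* K A t)
    {c : ℕ} (hc : c ∈ {i | ∃ σ ∈ K A t, σ b = i}) :
    ∃ x : Γ ⧸ ((K A t').subgroupOf (K A t)).comap (e : Γ →* K A t),
      (MulAction.orbit (((K A t').subgroupOf (K A t)).comap (e : Γ →* K A t)) x).ncard =
        {i | ∃ σ ∈ K A t', σ c = i}.ncard := by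
  obtain ⟨σ, hσ, rfl⟩ := hc
  have k : ∀ g g' : Γ, (QuotientGroup.leftRel
      (((K A t').subgroupOf (K A t)).comap (e : Γ →* K A t))) g g' ↔
      (e g : Equiv.Perm ℕ) b = (e g' : Equiv.Perm ℕ) b := fun g g' => by
    rw [QuotientGroup.leftRel_apply, mem_comap, mem_subgroupOf, map_mul, map_inv, eq_comm,
      ← Equiv.Perm.inv_eq_iff_eq]
    exact ⟨fun h => hs.2.1 _ h, fun h => hs.2.2 _ (Subtype.prop _) h⟩
  let f : Γ ⧸ ((K A t').subgroupOf (K A t)).comap (e : Γ →* K A t) → ℕ :=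
    Quotient.lift (fun g => (e g : Equiv.Perm ℕ) b) fun g g' h => (k g g').1 h
  refine ⟨(e.symm ⟨σ, hσ⟩ : Γ), ?_⟩
  rw [← Set.ncard_image_of_injective (f := f) _ (by
    rintro ⟨g⟩ ⟨g'⟩ h; exact Quotient.sound ((k g g').2 h))]
  congr 1
  ext i
  constructor
  · rintro ⟨_, ⟨g, rfl⟩, rfl⟩
    refine ⟨e g, g.2, ?_⟩
    show _ = (e (g * e.symm ⟨σ, hσ⟩) : Equiv.Perm ℕ) b
    simp
  · rintro ⟨τ, hτ, rfl⟩
    refine ⟨_, ⟨⟨e.symm ⟨τ, K_mono A hs.1 hτ⟩, by simpa [mem_subgroupOf] using hτ⟩, rfl⟩, ?_⟩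
    show (e (e.symm ⟨τ, K_mono A hs.1 hτ⟩ * e.symm ⟨σ, hσ⟩) : Equiv.Perm ℕ) b = _
    simp

end Cfsg.Agent.Spor
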