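import Cfsg.Agent.Lib.Spor.SU4
import Cfsg.Agent.Lib.Spor.Cent2
import Cfsg.Agent.Lib.PG.Hom
import Cfsg.Agent.Lib.PG.Iso

/-!
Identification of permutation groups with projective special unitary groups over any finite field.
-/

set_option autoImplicit false

namespace Cfsg.Agent.Spor

open Cfsg.Agent.PG Equiv Matrix

variable {R F : Type*} [CommRing R] [Field F] [Fintype F] {ρ : R →+* F} {st : R → R} {n q : ℕ}

theorem exists_su' (hF : Fintype.card F = q ^ 2) (hst : ∀ z, ρ (st z) = ρ z ^ q)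
    {M : Matrix (Fin n) (Fin n) R} (h1 : M.det = 1) (h2 : Mᵀ * M.map st = 1) :
    ∃ g, suRep n F q g = M.map ρ := by
  obtain ⟨σ, hσ, -⟩ := Lib.GL.Herm.exists_isInvol hF
  have h3 : (M.map ρ).det = 1 := by rw [← RingHom.mapMatrix_apply, ← RingHom.map_det, h1, map_one]
  refine ⟨⟨⟨_, h3⟩, fun u v => ?_⟩, rfl⟩
  refine (Lib.GL.Herm.mem_GU_iff' hσ
    (SpecialLinearGroup.toGL (⟨_, h3⟩ : SpecialLinearGroup (Fin n) F))).2 ?_ u v
  have : (M.map ρ).map σ = (M.map st).map ρ := by ext i j; simp [hσ, hst]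
  show (M.map ρ)ᵀ * (M.map ρ).map σ = 1
  rw [this, ← transpose_map, ← Matrix.map_mul, h2, Matrix.map_one _ (map_zero _) (map_one _)]

/-- a vector given by a code -/
def vcR (el : ℕ → R) (n c : ℕ) : Fin n → R := fun i => el (c >>> (8 * i.val) % 256)

/-- a matrix given by a code -/
def mxR (el : ℕ → R) (n c : ℕ) : Matrix (Fin n) (Fin n) R := fun i => vcR el n (c >>> (8 * n * i.val))

/-- test for membership in the special unitary group, with codes `(M, L', L, U)` -/
def SuR (el : ℕ → R) (st : R → R) (n : ℕ) (c : ℕ × ℕ × ℕ × ℕ) : Prop :=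
  (mxR el n c.1)ᵀ * (mxR el n c.1).map st = 1 ∧
  mxR el n c.1 * mxR el n c.2.1 = mxR el n c.2.2.1 * mxR el n c.2.2.2 ∧
  (∀ i j : Fin n, i < j → mxR el n c.2.2.1 i j = 0 ∧ mxR el n c.2.1 i j = 0 ∧
    mxR el n c.2.2.2 j i = 0) ∧
  (∀ i : Fin n, mxR el n c.2.2.1 i i = 1 ∧ mxR el n c.2.1 i i = 1) ∧
  ∏ i : Fin n, mxR el n c.2.2.2 i i = 1

instance instDecidableSuR [DecidableEq R] (el : ℕ → R) (st : R → R) (n : ℕ) (c : ℕ × ℕ × ℕ × ℕ) :
    Decidable (SuR el st n c) := by
  unfold SuR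
  refine @instDecidableAnd _ _ inferInstance (@instDecidableAnd _ _ inferInstance
    (@instDecidableAnd _ _ ?_ (@instDecidableAnd _ _ inferInstance inferInstance)))
  exact @Fintype.decidableForallFintype _ _
    (fun _ => @Fintype.decidableForallFintype _ _ (fun _ => inferInstance) _) _

/-- the lines through the listed vectors -/
noncomputable def lnR (ρ : R →+* F) (el : ℕ → R) (n q : ℕ) (V : List ℕ) (k : ℕ) :
    Sb (suRep n F q) := line _ (ρ ∘ vcR el n (nthD 0 V k))

/-- test of the action of the matrix `c` on the lines: images `im`, scalars `cs` -/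
noncomputable def actR [DecidableEq R] (el : ℕ → R) (st : R → R) (n : ℕ) (V : List ℕ)
    (A : List Net) (j lo m : ℕ) (c : (ℕ × ℕ × ℕ × ℕ) × List ℕ × ℕ) : Bool :=
  andB (imgsB A j lo m c.2.1) <| andB (decide (SuR el st n c.1)) <| allN m fun k =>
    force (nthD 0 V k) fun v => force (nthD 0 V (nthD 0 c.2.1 k)) fun w =>
      force (c.2.2 >>> (8 * k) % 256) fun s => andB (decide (∃ i, vcR el n v i = 1))
        (decide (mxR el n c.1.1 *ᵥ vcR el n v = el s • vcR el n w))

theorem acts_su [DecidableEq R] (hF : Fintype.card F = q ^ 2) (hst : ∀ z, ρ (st z) = ρ z ^ q)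
    {el : ℕ → R} {V : List ℕ} {N : ℕ} {A : List Net} (hA : okA N A = true) {t lo m : ℕ}
    {D : List ((ℕ × ℕ × ℕ × ℕ) × List ℕ × ℕ)}
    (h : allL (D.zipIdx t) (fun c => actR el st n V A c.2 lo m c.1) = true)
    (hl : t + D.length = A.length) :
    ∀ σ ∈ K A t, ∃ g : SU n F q,
      Acts (fun i => lnR ρ el n q V (i - lo)) (bset (ivl lo (lo + m))) g σ := by
  refine acts_of_K' fun j h1 h2 => ?_
  have hj : j - t < D.length := by omega
  have := allL_spec h (D[j - t], j) (by
    rw [List.mk_mem_zipIdx_iff_le_and_getElem?_sub]; exact ⟨h1, by simp⟩)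
  generalize D[j - t] = c at this
  simp only [actR, andB_eq, Bool.and_eq_true, decide_eq_true_eq] at this
  obtain ⟨a1, a2, a3⟩ := this
  obtain ⟨g, hg⟩ := exists_su' hF hst (by
    rw [det_eq_of_LU a2.2.1 (fun i j hij => (a2.2.2.1 i j hij).1) (fun i => (a2.2.2.2.1 i).1)
      (fun i j hij => (a2.2.2.1 i j hij).2.1) (fun i => (a2.2.2.2.1 i).2)
      (fun i j hij => (a2.2.2.1 j i hij).2.2), a2.2.2.2.2]) a2.1
  refine ⟨g, acts_of_imgs hA a1 fun k hk => ?_⟩
  have := allN_spec a3 k hk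
  simp only [force_eq, Bool.and_eq_true, decide_eq_true_eq] at this
  obtain ⟨⟨i, b1⟩, b2⟩ := this
  rw [← nthD_eq]
  refine smul_line_of (c := ρ (el (c.2.2 >>> (8 * k) % 256))) (fun e => ?_) ?_
  · simpa [b1] using congrFun e i
  · ext s
    rw [hg, ← RingHom.map_mulVec, b2]; simp

omit [Fintype F] in
theorem lnR_ne {el : ℕ → R} {V : List ℕ} {i k : ℕ}
    (h : ∃ s, vcR el n (nthD 0 V i) s = 1 ∧ vcR el n (nthD 0 V k) s = 0) :
    lnR ρ el n q V i ≠ lnR ρ el n q V k := fun e => by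
  obtain ⟨s, h1, h2⟩ := h
  obtain ⟨c, hc⟩ := exists_smul_of_line_eq e
  simpa [h1, h2] using congrFun hc s

theorem card_SU_le (hF : Fintype.card F = q ^ 2) (hn : 0 < n) {u : F} (hu : u * u ^ q = 1) :
    Nat.card (SU n F q) * orderOf u ≤ Nat.card (GU n F q) := by
  obtain ⟨σ, hσ, -⟩ := Lib.GL.Herm.exists_isInvol hF
  let f : GU n F q →* Fˣ := GeneralLinearGroup.det.comp (GU n F q).subtype
  have u0 := left_ne_zero_of_mul_eq_one hu
  have hs : Units.mk0 u u0 ∈ f.range := by
    let d : Fin n → F := Function.update 1 ⟨0, hn⟩ u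
    have hd : (diagonal d).det = u := by
      rw [det_diagonal, Finset.prod_update_of_mem (Finset.mem_univ _)]; simp
    refine ⟨⟨GeneralLinearGroup.mkOfDetNeZero (diagonal d) (by rw [hd]; exact u0),
      (Lib.GL.Herm.mem_GU_iff' hσ _).2 ?_⟩, Units.ext hd⟩
    show (diagonal d)ᵀ * (diagonal d).map σ = 1
    rw [diagonal_transpose, diagonal_map (map_zero _), diagonal_mul_diagonal, ← diagonal_one]
    congr 1
    ext i
    by_cases hi : i = ⟨0, hn⟩
    · subst hi; simpa [d, hσ] using hu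
    · simp [d, Function.update_of_ne hi]
  rw [← Subgroup.card_mul_index f.ker, Subgroup.index_ker]
  refine Nat.mul_le_mul (le_of_eq (Nat.card_congr
    { toFun := fun g => ⟨⟨SpecialLinearGroup.toGL g.1, g.2⟩, Units.ext g.1.2⟩
      invFun := fun g => ⟨⟨g.1.1.1, congrArg Units.val g.2⟩, g.1.2⟩
      left_inv := fun g => rfl
      right_inv := fun g => Subtype.ext (Subtype.ext (Units.ext rfl)) })) ?_
  rw [show u = (Units.mk0 u u0 : Fˣ) from rfl, orderOf_units, ← Nat.card_zpowers]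
  exact Subgroup.card_le_of_le (Subgroup.zpowers_le.2 hs)

theorem psu_iso (hF : Fintype.card F = q ^ 2) (hρ : Function.Injective ρ)
    (hst : ∀ z, ρ (st z) = ρ z ^ q) (hn : 0 < n) {Q : Subgroup (Perm ℕ)} [Finite Q]
    [IsSimpleGroup Q] (hQ : ¬ (Nat.card Q).Prime) {B : Set ℕ} {x : ℕ → Fin n → F}
    (h : ∀ σ ∈ Q, ∃ g : SU n F q, Acts (fun i => line (suRep n F q) (x i)) B g σ)
    (hX : Set.InjOn (fun i => line (suRep n F q) (x i)) B) (hf : FixTriv Q B) {u w : R}
    (hu : u * st u = 1) (hw : w * st w = 1) (hwn : w ^ n = 1)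
    (hc : Lib.GL.Herm.guOrder q n ≤ (Nat.card Q * orderOf w * orderOf u : ℕ)) :
    Nonempty (PSU n F q ≃* Q) := by
  have hi := suRep_injective n F q
  have : Finite (SU n F q) := Finite.of_injective _ hi
  have : Nonempty (Fin n) := ⟨⟨0, hn⟩⟩
  obtain ⟨z, hz⟩ := exists_su' hF hst (M := (scalar (Fin n) w)) (by simp [hwn]) (by
    have s0 : st 0 = 0 := hρ (by
      rw [hst, map_zero, zero_pow]
      rintro rfl
      exact Fintype.card_ne_zero hF)
    rw [scalar_apply, diagonal_transpose, diagonal_map s0, diagonal_mul_diagonal, ← diagonal_one]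
    simp [hw])
  have hz' : suRep n F q z = scalar (Fin n) (ρ w) := by
    rw [hz, scalar_apply, diagonal_map (map_zero _)]; rfl
  have c1 : Subgroup.zpowers z ≤ Subgroup.center _ := by
    rw [Subgroup.zpowers_le, Subgroup.mem_center_iff]
    intro g
    apply hi
    rw [map_mul, map_mul, hz', (scalar_commute _ (fun _ => Commute.all _ _) _).eq]
  have c2 : Nat.card (Subgroup.zpowers z) = orderOf w := by
    rw [Nat.card_zpowers, ← orderOf_injective _ hi, hz',
      ← orderOf_injective ρ.toMonoidHom hρ]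
    exact orderOf_injective (scalar (α := F) (Fin n)).toMonoidHom (fun _ _ e => scalar_inj.1 e) _
  have : (Subgroup.zpowers z).Normal := ⟨fun a ha g => by
    rwa [Subgroup.mem_center_iff.1 (c1 ha), mul_inv_cancel_right]⟩
  have u1 : ρ u * ρ u ^ q = 1 := by rw [← hst, ← map_mul, hu, map_one]
  have c3 := card_SU_le hF hn u1
  obtain ⟨e⟩ := iso_quot_of_acts (Z := Subgroup.zpowers z) h hX hf (fun g hg i _ => by
    have : Subgroup.zpowers z ≤ MulAction.stabilizer _ (line (suRep n F q) (x i)) := by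
      rw [Subgroup.zpowers_le, MulAction.mem_stabilizer_iff, smul_line, hz', scalar_apply,
        ← smul_one_eq_diagonal, smul_mulVec, one_mulVec, line_smul]
      exact left_ne_zero_of_mul_eq_one (b := ρ (st w)) (by rw [← map_mul, hw, map_one])
    exact this hg) (by
    rw [← Lib.GL.Herm.card_GU hF, Nat.cast_le, ← orderOf_injective ρ.toMonoidHom hρ u] at hc
    rw [c2]
    exact Nat.le_of_mul_le_mul_right (c3.trans hc)
      (orderOf_pos_iff.2 (isOfFinOrder_iff_pow_eq_one.2 ⟨q + 1, q.succ_pos, by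
        rw [pow_succ', u1]⟩)))
  have k : ((e : _ →* Q).comp (QuotientGroup.mk' (Subgroup.zpowers z))).ker =
      Subgroup.zpowers z := by
    ext g; simp
  have := center_eq_ker' (not_comm_of_simple hQ)
    (e.surjective.comp (QuotientGroup.mk'_surjective _)) (k ▸ c1)
  exact ⟨(QuotientGroup.quotientMulEquivOfEq (this.trans k)).trans e⟩

/-- the computational model of a field with `p ^ 2` elements -/
abbrev QA (p a : ℕ) : Type := QuadraticAlgebra (ZMod p) a 0

/-- an element from its code -/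
def qel (p a k : ℕ) : QA p a := ⟨(k % 16 : ℕ), (k / 16 : ℕ)⟩

theorem exists_qa {p a : ℕ} (hp : p.Prime) (hF : Fintype.card F = p ^ 2) (h2 : p ≠ 2)
    (ha : (a : ZMod p) ^ (p ^ 2 / 2) = 1)
    (h : ∀ x y : ZMod p, (⟨x, y⟩ : QA p a) ^ p = star ⟨x, y⟩ ∧
      ((⟨x, y⟩ : QA p a) = 0 ∨ (⟨x, y⟩ : QA p a) ^ (p ^ 2 - 1) = 1)) :
    ∃ ρ : QA p a →+* F, Function.Injective ρ ∧ ∀ z, ρ (star z) = ρ z ^ p := by
  have : Fact p.Prime := ⟨hp⟩
  have : CharP F p := charP_of_card_eq_prime_pow (f := 2) hF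
  let _ : Algebra (ZMod p) F := ZMod.algebra F p
  have p2 : 1 < p ^ 2 := hF ▸ Fintype.one_lt_card
  have k := congrArg (algebraMap (ZMod p) F) ha
  rw [map_pow, map_one] at k
  obtain ⟨i, hi⟩ : IsSquare (algebraMap (ZMod p) F a) :=
    (FiniteField.isSquare_iff (by rwa [ringChar.eq F p]) (fun e => by
      rw [e, zero_pow (by omega)] at k; exact zero_ne_one k)).2 (by rwa [hF])
  let ρ : QA p a →+* F := (QuadraticAlgebra.lift ⟨i, by
    rw [← hi, Algebra.algebraMap_eq_smul_one]; simp⟩ : QA p a →ₐ[ZMod p] F)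
  refine ⟨ρ, (injective_iff_map_eq_zero _).2 fun z hz => (h z.re z.im).2.resolve_right fun e => ?_,
    fun z => by rw [← map_pow]; exact congrArg ρ (h z.re z.im).1.symm⟩
  have := congrArg ρ e
  rw [map_pow, map_one, hz, zero_pow (by omega)] at this
  exact zero_ne_one this

end Cfsg.Agent.Spor
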